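import Cfsg.Agent.Lib.H16.CosetEnum

/-!
The presentation of `O₇(3)` inside the presented Fischer group `Fi₂₂`, with `S₆(2)` and `S₇`.
-/

set_option autoImplicit false

namespace Cfsg.Agent.H16.O73

/-- The generators `b, …, i`. -/
inductive Gen
  | b | c | d | e | f | g | h | i
  deriving DecidableEq

def edges : List (Gen × ℕ × Gen) :=
  [(.b, 3, .c), (.c, 3, .d), (.d, 3, .e), (.d, 3, .h), (.e, 3, .f), (.f, 3, .g), (.h, 3, .i)]

abbrev b : FreeGroup Gen := FreeGroup.of Gen.b
abbrev c : FreeGroup Gen := FreeGroup.of Gen.c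
abbrev d : FreeGroup Gen := FreeGroup.of Gen.d
abbrev e : FreeGroup Gen := FreeGroup.of Gen.e
abbrev f : FreeGroup Gen := FreeGroup.of Gen.f
abbrev g : FreeGroup Gen := FreeGroup.of Gen.g
abbrev h : FreeGroup Gen := FreeGroup.of Gen.h
abbrev i : FreeGroup Gen := FreeGroup.of Gen.i

def extra : List (FreeGroup Gen) :=
  [(d * c * b * d * e * f * d * h * i) ^ 10, (b * c * d * e * f * g * h) ^ 9]

abbrev P : Type := Cfsg.Spor.CoxPresented Gen edges extra

namespace E7

/-- The generators `b, …, h`. -/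
inductive Gen
  | b | c | d | e | f | g | h
  deriving DecidableEq

def edges : List (Gen × ℕ × Gen) :=
  [(.b, 3, .c), (.c, 3, .d), (.d, 3, .e), (.d, 3, .h), (.e, 3, .f), (.f, 3, .g)]

abbrev b : FreeGroup Gen := FreeGroup.of Gen.b
abbrev c : FreeGroup Gen := FreeGroup.of Gen.c
abbrev d : FreeGroup Gen := FreeGroup.of Gen.d
abbrev e : FreeGroup Gen := FreeGroup.of Gen.e
abbrev f : FreeGroup Gen := FreeGroup.of Gen.f
abbrev g : FreeGroup Gen := FreeGroup.of Gen.g
abbrev h : FreeGroup Gen := FreeGroup.of Gen.h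

def extra : List (FreeGroup Gen) := [(b * c * d * e * f * g * h) ^ 9]

abbrev P : Type := Cfsg.Spor.CoxPresented Gen edges extra

end E7

namespace A6

/-- The generators `b, …, g`. -/
inductive Gen
  | b | c | d | e | f | g
  deriving DecidableEq

def edges : List (Gen × ℕ × Gen) :=
  [(.b, 3, .c), (.c, 3, .d), (.d, 3, .e), (.e, 3, .f), (.f, 3, .g)]

def extra : List (FreeGroup Gen) := []

abbrev P : Type := Cfsg.Spor.CoxPresented Gen edges extra

end A6

end Cfsg.Agent.H16.O73
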