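import Cfsg.Agent.Lib.H16.O73.Defs
import Cfsg.Agent.Lib.Lead.OmegaForms

/-!
The generators of `O₇(3)` as negatives of reflections in vectors of norm `2`.
-/

set_option autoImplicit false
set_option linter.style.haveILetI false
set_option linter.unusedSimpArgs false

namespace Cfsg.Agent.H16.O73

open Matrix Cfsg.Agent.Lead.Ortho Cfsg.Agent.Lead.Omega
open scoped commutatorElement

abbrev I7 := Unit ⊕ (Fin 3 ⊕ Fin 3)
abbrev F3 := ZMod 3
abbrev V7 := I7 → F3
abbrev Q7 : V7 → F3 := Cfsg.quadFormOdd 3 F3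
abbrev B7 : V7 → V7 → F3 := polarOdd 3 F3
abbrev M7 := Matrix I7 I7 F3
abbrev O7 := OG F3 Q7

instance fact3 : Fact (Nat.Prime 3) := ⟨Nat.prime_three⟩

theorem qf7 : QF Q7 B7 := qfOdd 3

/-- A vector from its coordinates. -/
def mkV (a0 a1 a2 a3 b1 b2 b3 : F3) : V7
  | .inl _ => a0
  | .inr (.inl i) => ![a1, a2, a3] i
  | .inr (.inr i) => ![b1, b2, b3] i

theorem eq_mkV (w : V7) : w = mkV (w (.inl ())) (w (.inr (.inl 0))) (w (.inr (.inl 1))) (w (.inr (.inl 2)))
    (w (.inr (.inr 0))) (w (.inr (.inr 1))) (w (.inr (.inr 2))) := by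
  funext i
  rcases i with ⟨⟩ | i | i
  · rfl
  · fin_cases i <;> rfl
  · fin_cases i <;> rfl

/-- The vectors of the generators. -/
def vec : Gen → V7
  | .b => mkV 2 1 1 2 1 0 0
  | .c => mkV 2 2 0 1 1 2 2
  | .d => mkV 2 2 2 1 2 2 2
  | .e => mkV 0 2 0 1 0 0 2
  | .f => mkV 2 0 0 1 2 0 1
  | .g => mkV 0 2 2 1 2 2 0
  | .h => mkV 0 0 0 1 1 1 2
  | .i => mkV 1 0 1 1 0 0 1

theorem vec_Q (x : Gen) : Q7 (vec x) = 2 := by
  cases x <;> decide +kernel

/-- The coefficients of the polar form. -/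
def dualv (u : V7) : V7
  | .inl _ => 2 * u (.inl ())
  | .inr (.inl i) => u (.inr (.inr i))
  | .inr (.inr i) => u (.inr (.inl i))

theorem sum_dual (u x : V7) : ∑ j, dualv u j * x j = B7 x u := by
  simp only [Fintype.sum_sum_type, B7, polarOdd, dualv, Fin.sum_univ_three, Finset.univ_unique,
    Finset.sum_singleton]
  ring_nf

/-- The matrix of `x ↦ x - k B(x, u) u`. -/
def Rm (u : V7) (k : F3) : M7 := fun i j => (1 : M7) i j - k * dualv u j * u i

theorem Rm_mulVec (u : V7) (k : F3) (x : V7) : Rm u k *ᵥ x = x - (k * B7 x u) • u := by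
  funext i
  simp only [Matrix.mulVec, dotProduct, Rm, Pi.sub_apply, Pi.smul_apply, smul_eq_mul, sub_mul,
    Finset.sum_sub_distrib, Matrix.one_apply, ite_mul, one_mul, zero_mul, Finset.sum_ite_eq,
    Finset.mem_univ, if_true]
  congr 1
  rw [← sum_dual, Finset.mul_sum, Finset.sum_mul]
  apply Finset.sum_congr rfl
  intro j _
  ring

/-- The map to matrices. -/
def toM : O7 →* M7 := (Units.coeHom M7).comp (Cfsg.isometryGroup F3 Q7).subtype

theorem toM_inj : Function.Injective toM := by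
  intro g h e
  apply Subtype.ext
  apply Units.ext
  exact e

theorem toM_mulVec (g : O7) (x : V7) : toM g *ᵥ x = act g x := rfl

theorem toM_eq_of_act {g : O7} {M : M7} (h : ∀ x, act g x = M *ᵥ x) : toM g = M := by
  apply Matrix.toLin'.injective
  apply LinearMap.ext
  intro x
  simp only [Matrix.toLin'_apply]
  rw [toM_mulVec, h]

/-- `-1`. -/
noncomputable def negO : O7 :=
  mkO (-LinearMap.id) (-LinearMap.id) (by simp) (by simp) (fun x => by
    have := qf7.smul (-1) x
    simpa using this)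

theorem act_negO (x : V7) : act negO x = -x := by
  rw [negO, act_mkO]
  rfl

theorem negO_comm (g : O7) : negO * g = g * negO := by
  apply og_ext
  intro x
  rw [act_mul, act_mul, act_negO, act_negO, act_neg]

theorem two_ne : (2 : F3) ≠ 0 := by decide

/-- The reflection in a vector of norm two, negated. -/
noncomputable def tw (w : V7) (h : Q7 w = 2) : O7 := negO * R qf7 w (by rw [h]; exact two_ne)

theorem toM_R {u : V7} (hu : Q7 u ≠ 0) {k : F3} (hk : k * Q7 u = 1) : toM (R qf7 u hu) = Rm u k := by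
  apply toM_eq_of_act
  intro x
  rw [act_R, Rm_mulVec]
  congr 2
  rw [div_eq_mul_inv, mul_comm]
  congr 1
  exact inv_eq_of_mul_eq_one_left hk

/-- The matrix of `tw`. -/
def Tm (w : V7) : M7 := -Rm w 2

theorem toM_tw (w : V7) (h : Q7 w = 2) : toM (tw w h) = Tm w := by
  apply toM_eq_of_act
  intro x
  rw [tw, act_mul, act_negO, act_R, Tm, Matrix.neg_mulVec, Rm_mulVec, h]
  congr 2
  rw [div_eq_mul_inv, mul_comm]
  have e : (2 : F3)⁻¹ = 2 := inv_eq_of_mul_eq_one_left (by decide)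
  rw [e]

/-- The matrix of the generators. -/
def TT (x : Gen) : M7 := Tm (vec x)

noncomputable def t (x : Gen) : O7 := tw (vec x) (vec_Q x)

theorem toM_t (x : Gen) : toM (t x) = TT x := toM_tw _ _

theorem cox_rel (x y : Gen) : (TT x * TT y) ^ (Cfsg.Spor.coxLabel edges x y) = 1 := by
  cases x <;> cases y <;> decide +kernel

theorem ex_rel1 : (TT .d * TT .c * TT .b * TT .d * TT .e * TT .f * TT .d * TT .h * TT .i) ^ 10 = 1 := by
  decide +kernel

theorem ex_rel2 : (TT .b * TT .c * TT .d * TT .e * TT .f * TT .g * TT .h) ^ 9 = 1 := by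
  decide +kernel

/-- A relator in the group follows from the relator in the matrices. -/
theorem gen_relators : ∀ r ∈ Cfsg.Spor.coxRelators edges ∪ {r | r ∈ extra}, FreeGroup.lift t r = 1 := by
  rintro r (⟨x, -, y, -, rfl⟩ | hr)
  · apply toM_inj
    simp only [map_pow, map_mul, FreeGroup.lift_apply_of, toM_t, map_one]
    exact cox_rel x y
  · have hr' : r = (d * c * b * d * e * f * d * h * i) ^ 10 ∨ r = (b * c * d * e * f * g * h) ^ 9 := by
      simpa [extra] using hr
    apply toM_inj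
    rcases hr' with rfl | rfl
    · simp only [map_pow, map_mul, FreeGroup.lift_apply_of, toM_t, map_one]
      exact ex_rel1
    · simp only [map_pow, map_mul, FreeGroup.lift_apply_of, toM_t, map_one]
      exact ex_rel2

/-- The map from the presented group to the orthogonal group. -/
noncomputable def th0 : P →* O7 := PresentedGroup.toGroup gen_relators

theorem th0_of (x : Gen) : th0 (PresentedGroup.of x) = t x := PresentedGroup.toGroup.of gen_relators

/-- The commutator subgroup as `Omega`. -/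
abbrev Om7 : Subgroup O7 := Cfsg.Omega F3 Q7

theorem R_mul_R_mem {a b : V7} (ha : Q7 a ≠ 0) (hb : Q7 b ≠ 0) (e : Q7 a = Q7 b) (hab : B7 a b = 0) :
    R qf7 a ha * R qf7 b hb ∈ Om7 := by
  have hQ : Q7 (a - b) = 2 * Q7 a := by
    rw [sub_eq_add_neg, qf7.add]
    have h1 : Q7 (-b) = Q7 b := by
      have := qf7.smul (-1) b
      simpa using this
    have h2 : B7 a (-b) = - B7 a b := by
      have := qf7.smul_right (-1) a b
      simpa using this
    rw [h1, h2, hab, ← e]
    ring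
  have hQ0 : Q7 (a - b) ≠ 0 := by
    rw [hQ]
    exact mul_ne_zero two_ne ha
  have hact : act (R qf7 (a - b) hQ0) a = b := by
    rw [act_R, hQ]
    have h3 : B7 a (a - b) = 2 * Q7 a := by
      rw [sub_eq_add_neg, qf7.add_right, qf7.self]
      have h2 : B7 a (-b) = - B7 a b := by
        have := qf7.smul_right (-1) a b
        simpa using this
      rw [h2, hab]
      ring
    rw [h3, div_self (mul_ne_zero two_ne ha), one_smul]
    abel
  have hb' : Q7 (act (R qf7 (a - b) hQ0) a) ≠ 0 := by rw [hact]; exact hb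
  have h1 := R_conj qf7 (R qf7 (a - b) hQ0) ha hb'
  have h2 : R qf7 (act (R qf7 (a - b) hQ0) a) hb' = R qf7 b hb := R_congr qf7 _ _ hact
  rw [← h2, ← h1]
  have : R qf7 a ha * (R qf7 (a - b) hQ0 * R qf7 a ha * (R qf7 (a - b) hQ0)⁻¹) =
      ⁅R qf7 a ha, R qf7 (a - b) hQ0⁆ := by
    rw [commutatorElement_def, R_inv qf7 ha]
    group
  rw [this]
  exact Subgroup.commutator_mem_commutator (Subgroup.mem_top _) (Subgroup.mem_top _)

def u1 : V7 := mkV 0 1 1 0 2 2 0
def u2 : V7 := mkV 2 2 0 2 2 0 1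
def u3 : V7 := mkV 1 2 1 0 0 0 2
def u4 : V7 := mkV 2 2 2 2 0 1 2
def u5 : V7 := mkV 0 0 1 2 1 0 1
def u6 : V7 := mkV 1 0 1 0 0 1 1

theorem Q_u1 : Q7 u1 = 1 := by decide +kernel
theorem Q_u2 : Q7 u2 = 1 := by decide +kernel
theorem Q_u3 : Q7 u3 = 1 := by decide +kernel
theorem Q_u4 : Q7 u4 = 1 := by decide +kernel
theorem Q_u5 : Q7 u5 = 2 := by decide +kernel
theorem Q_u6 : Q7 u6 = 2 := by decide +kernel
theorem B_12 : B7 u1 u2 = 0 := by decide +kernel
theorem B_34 : B7 u3 u4 = 0 := by decide +kernel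
theorem B_56 : B7 u5 u6 = 0 := by decide +kernel

theorem frame_eq : TT .d = Rm u1 1 * Rm u2 1 * (Rm u3 1 * Rm u4 1) * (Rm u5 2 * Rm u6 2) := by
  decide +kernel

theorem one_ne : (1 : F3) ≠ 0 := one_ne_zero

theorem t_d_mem : t .d ∈ Om7 := by
  have h1 : Q7 u1 ≠ 0 := by rw [Q_u1]; exact one_ne
  have h2 : Q7 u2 ≠ 0 := by rw [Q_u2]; exact one_ne
  have h3 : Q7 u3 ≠ 0 := by rw [Q_u3]; exact one_ne
  have h4 : Q7 u4 ≠ 0 := by rw [Q_u4]; exact one_ne
  have h5 : Q7 u5 ≠ 0 := by rw [Q_u5]; exact two_ne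
  have h6 : Q7 u6 ≠ 0 := by rw [Q_u6]; exact two_ne
  have key : t .d = R qf7 u1 h1 * R qf7 u2 h2 * (R qf7 u3 h3 * R qf7 u4 h4) * (R qf7 u5 h5 * R qf7 u6 h6) := by
    apply toM_inj
    rw [toM_t, frame_eq, map_mul, map_mul, map_mul, map_mul, map_mul]
    rw [toM_R h1 (k := 1) (by rw [Q_u1]; decide), toM_R h2 (k := 1) (by rw [Q_u2]; decide),
      toM_R h3 (k := 1) (by rw [Q_u3]; decide), toM_R h4 (k := 1) (by rw [Q_u4]; decide),
      toM_R h5 (k := 2) (by rw [Q_u5]; decide), toM_R h6 (k := 2) (by rw [Q_u6]; decide)]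
  rw [key]
  refine Om7.mul_mem (Om7.mul_mem ?_ ?_) ?_
  · exact R_mul_R_mem _ _ (by rw [Q_u1, Q_u2]) B_12
  · exact R_mul_R_mem _ _ (by rw [Q_u3, Q_u4]) B_34
  · exact R_mul_R_mem _ _ (by rw [Q_u5, Q_u6]) B_56

theorem conj_adj {G : Type*} [Group G] {s r : G} (hs : s * s = 1) (hr : r * r = 1) (h : (s * r) ^ 3 = 1) :
    r = (s * r) * s * (s * r)⁻¹ := by
  have hs' : s⁻¹ = s := inv_eq_of_mul_eq_one_left hs
  have hr' : r⁻¹ = r := inv_eq_of_mul_eq_one_left hr
  have h3 : s * r * s * r * s * r = 1 := by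
    rw [← h]
    simp only [pow_succ, pow_zero, one_mul, mul_assoc]
  rw [_root_.mul_inv_rev, hs', hr']
  have : s * r * s * (r * s) = s * r * s * r * s := by group
  rw [this]
  exact ((mul_eq_one_iff_eq_inv.1 h3).trans hr').symm

theorem t_invol (x : Gen) : t x * t x = 1 := by
  apply toM_inj
  rw [map_mul, toM_t, map_one]
  have := cox_rel x x
  cases x <;> exact (by simpa [Cfsg.Spor.coxLabel] using this)

theorem t_adj {x y : Gen} (h : Cfsg.Spor.coxLabel edges x y = 3) : (t x * t y) ^ 3 = 1 := by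
  apply toM_inj
  rw [map_pow, map_mul, toM_t, toM_t, map_one]
  have := cox_rel x y
  rwa [h] at this

theorem mem_of_adj {x y : Gen} (h : Cfsg.Spor.coxLabel edges x y = 3) (hx : t x ∈ Om7) : t y ∈ Om7 := by
  rw [conj_adj (t_invol x) (t_invol y) (t_adj h)]
  have hN : Om7.Normal := inferInstance
  exact hN.conj_mem _ hx _

theorem t_mem (x : Gen) : t x ∈ Om7 := by
  have hc := mem_of_adj (x := .d) (y := .c) rfl t_d_mem
  have hb := mem_of_adj (x := .c) (y := .b) rfl hc
  have he := mem_of_adj (x := .d) (y := .e) rfl t_d_mem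
  have hf := mem_of_adj (x := .e) (y := .f) rfl he
  have hg := mem_of_adj (x := .f) (y := .g) rfl hf
  have hh := mem_of_adj (x := .d) (y := .h) rfl t_d_mem
  have hi := mem_of_adj (x := .h) (y := .i) rfl hh
  cases x
  · exact hb
  · exact hc
  · exact t_d_mem
  · exact he
  · exact hf
  · exact hg
  · exact hh
  · exact hi

end Cfsg.Agent.H16.O73
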