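import Cfsg.Agent.Lib.H16.O73.Defs
import Cfsg.Agent.Lib.H16.CE.S1686b.C0
import Cfsg.Agent.Lib.H16.CE.S1686b.R1

set_option autoImplicit false
set_option maxRecDepth 1000000

namespace Cfsg.Agent.H16.CE.S1686b

open Cfsg.Agent.H16.CosetEnum

def code (x : Cfsg.Agent.H16.O73.E7.Gen × Bool) : ℕ :=
  match x.1 with
  | .b => 0
  | .c => 1
  | .d => 2
  | .e => 3
  | .f => 4
  | .g => 5
  | .h => 6


def gs (a : ℕ) : Cfsg.Agent.H16.O73.E7.Gen × Bool :=
  match a with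
  | 0 => (.b, true)
  | 1 => (.c, true)
  | 2 => (.d, true)
  | 3 => (.e, true)
  | 4 => (.f, true)
  | 5 => (.g, true)
  | 6 => (.h, true)
  | _ => (.b, true)

abbrev R : Set (FreeGroup Cfsg.Agent.H16.O73.E7.Gen) := Cfsg.Spor.coxRelators Cfsg.Agent.H16.O73.E7.edges ∪ {r | r ∈ Cfsg.Agent.H16.O73.E7.extra}
abbrev S : Set (FreeGroup Cfsg.Agent.H16.O73.E7.Gen) := {FreeGroup.of Cfsg.Agent.H16.O73.E7.Gen.b, FreeGroup.of Cfsg.Agent.H16.O73.E7.Gen.c, FreeGroup.of Cfsg.Agent.H16.O73.E7.Gen.d, FreeGroup.of Cfsg.Agent.H16.O73.E7.Gen.e, FreeGroup.of Cfsg.Agent.H16.O73.E7.Gen.f, FreeGroup.of Cfsg.Agent.H16.O73.E7.Gen.g}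
def SL : List (FreeGroup Cfsg.Agent.H16.O73.E7.Gen) := [FreeGroup.of Cfsg.Agent.H16.O73.E7.Gen.b, FreeGroup.of Cfsg.Agent.H16.O73.E7.Gen.c, FreeGroup.of Cfsg.Agent.H16.O73.E7.Gen.d, FreeGroup.of Cfsg.Agent.H16.O73.E7.Gen.e, FreeGroup.of Cfsg.Agent.H16.O73.E7.Gen.f, FreeGroup.of Cfsg.Agent.H16.O73.E7.Gen.g]
noncomputable def dd : D := ⟨F, PL, iv, 7, rlT, hwT⟩

theorem hW1 : ((coxList Cfsg.Agent.H16.O73.E7.edges Cfsg.Agent.H16.O73.E7.extra).map (letters code)).all (fun w => decide (w ∈ WL0)) = true := by decide +kernel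
theorem hW2 : WL0.all (fun w => decide (w ∈ (coxList Cfsg.Agent.H16.O73.E7.edges Cfsg.Agent.H16.O73.E7.extra).map (letters code))) = true := by decide +kernel
theorem hder : ∀ W ∈ rlT.words, derivedOK iv WL0 W = true := by decide +kernel
theorem hhw : hwL = SL.map (letters code) := by decide +kernel
theorem hsub : ∀ W ∈ WL0, W ∈ WLc := by decide +kernel
theorem hivw : ∀ a < 7, [a, iv a] ∈ WLc := by decide +kernel

theorem base : Base R S gs code 7 dd SL WL0 :=
  base_of (by rintro ⟨g, b⟩; cases g <;> cases b <;> decide) (by decide) rfl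
    (by rintro ⟨g, b⟩; cases g <;> cases b <;> rfl) (fun _ h => h)
    (by intro s; simp [S, SL]) hW1 hW2 hder (hwT_words.trans hhw)

theorem facts : ∀ m < 1344, FactTrue (subH R S) (lt R gs 7) dd m := by
  have h0 := (fact_start (R := R) (S := S) (gs := gs) (k := 7) (d := dd))
  have h1 : ∀ m < 1344, FactTrue (subH R S) (lt R gs 7) dd m := base.extend h0 hc0 ht0
  exact h1
theorem cosets : ∀ i < 288, allAt LL i = true := by
  have h0 := range_start (P := allAt LL)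
  have h1 : ∀ i < 288, allAt LL i = true := range_step h0 hr0 rfl
  exact h1

instance instNZ : NeZero 288 := ⟨by norm_num⟩

theorem hfix' : ∀ W ∈ dd.hw.words, Cfsg.Agent.H16.Enum.walk tt 0 W = 0 := by
  intro W hW
  have e : dd.hw.words = hwL := hwT_words
  rw [e] at hW
  exact hfix W hW

theorem main : ∃ act : PresentedGroup R →* (Equiv.Perm (Fin 288))ᵐᵒᵖ,
      TableOK (subH R S) (lt R gs 7) tt 7 288 (fun i => rep (lt R gs 7) dd (AA i)) act tp ta ∧
      ∀ (r : FreeGroup Cfsg.Agent.H16.O73.E7.Gen) (i : Fin 288), (ract act (PresentedGroup.mk R r) i : ℕ) = Cfsg.Agent.H16.Enum.walk tt i (letters code r) :=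
  base.tableOK (M := 1344) facts (EF := EF) (A := AA) (L := LL) (WLc := WLc) hL cosets hsub hivw hA0 hfix'

theorem theIndex : (subH R S).index = 288 := by
  obtain ⟨act, T, hact⟩ := main
  exact T.index

end Cfsg.Agent.H16.CE.S1686b
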